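/-
`p`-complements in `p`-solvable groups: existence, conjugacy, and embedding of `p'`-subgroups.
-/
import Cfsg.Agent.Lib.Core.PSolvable
import Cfsg.Agent.Lib.Coprime.SchurZassenhaus
import Mathlib.GroupTheory.SchurZassenhaus

set_option autoImplicit false

open Cfsg

namespace Cfsg.Agent.Lib.Core.PComplement

open Cfsg.Agent.Lib.Core.Basic Cfsg.Agent.Lib.Core.PSolvable

universe u

variable {G : Type u} [Group G] {p : ℕ}

/-- `H` is a `p`-complement: its order is prime to `p` and its index is a power of `p`. -/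
abbrev IsPCompl (p : ℕ) (H : Subgroup G) : Prop :=
  (Nat.card H).Coprime p ∧ ∃ n : ℕ, H.index = p ^ n

/-- A normal `p'`-subgroup lies in every `p`-complement. -/
theorem le_of_isPCompl [Finite G] [Fact p.Prime] {H R : Subgroup G} (hH : IsPCompl p H) [R.Normal]
    (hR : (Nat.card R).Coprime p) : R ≤ H := by
  have hp : p.Prime := Fact.out
  obtain ⟨hc, n, hn⟩ := hH
  set K := H ⊔ R with hK
  have h1 : H ≤ K := le_sup_left
  have h2 : H.relIndex K * K.index = H.index := Subgroup.relIndex_mul_index h1
  have h3 : H.relIndex K ∣ p ^ n := by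
    rw [← hn, ← h2]; exact dvd_mul_right _ _
  have h4 : Nat.card K = Nat.card H * H.relIndex K := card_eq_card_mul_relIndex h1
  have h5 : (Nat.card K).Coprime p := by
    have h6 := Cfsg.Agent.Lib.Core.Radical.card_sup_dvd_of_normal H R
    exact Nat.Coprime.coprime_dvd_left h6 (Nat.Coprime.mul_left hc hR)
  have h7 : (H.relIndex K).Coprime p :=
    Nat.Coprime.coprime_dvd_left (h4 ▸ dvd_mul_left _ _) h5
  have h8 : H.relIndex K = 1 := Nat.Coprime.eq_one_of_dvd (h7.pow_right n) h3
  exact le_sup_right.trans (Subgroup.relIndex_eq_one.mp h8)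

/-- Two `p`-complements have the same order. -/
theorem card_eq_of_isPCompl [Finite G] {H K : Subgroup G} (hH : IsPCompl p H) (hK : IsPCompl p K) :
    Nat.card H = Nat.card K := by
  obtain ⟨hc, n, hn⟩ := hH
  obtain ⟨hc', m, hm⟩ := hK
  have h1 := Subgroup.card_mul_index H
  have h2 := Subgroup.card_mul_index K
  rw [hn] at h1
  rw [hm] at h2
  apply Nat.dvd_antisymm
  · exact (hc.pow_right m).dvd_of_dvd_mul_right ⟨p ^ n, h2.trans h1.symm⟩
  · exact (hc'.pow_right n).dvd_of_dvd_mul_right ⟨p ^ m, h1.trans h2.symm⟩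

/-- Existence of `p`-complements. -/
theorem exists_isPCompl_aux [Fact p.Prime] (n : ℕ) :
    ∀ (G : Type u) [Group G] [Finite G], Nat.card G ≤ n → IsPSolvable p G →
      ∃ H : Subgroup G, IsPCompl p H := by
  have hp : p.Prime := Fact.out
  induction n with
  | zero =>
    intro G _ _ h
    have := Nat.card_pos (α := G)
    omega
  | succ n ih =>
    intro G _ _ hn hG
    by_cases hs : Subsingleton G
    · refine ⟨⊤, ?_, 0, by simp⟩
      rw [Nat.card_eq_one_iff_unique.mpr ⟨inferInstance, ⟨⟨1, Subgroup.one_mem _⟩⟩⟩]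
      exact Nat.coprime_one_left p
    rw [not_subsingleton_iff_nontrivial] at hs
    obtain ⟨R, hRn, hR1, hRc⟩ := isPSolvable_exists_normal hG
    haveI := hRn
    set π := QuotientGroup.mk' R with hπdef
    have hπ : Function.Surjective π := QuotientGroup.mk'_surjective R
    have hGR : Nat.card G = Nat.card (G ⧸ R) * Nat.card R :=
      Subgroup.card_eq_card_quotient_mul_card_subgroup R
    have hcard : Nat.card (G ⧸ R) ≤ n := by
      have h2 : 1 < Nat.card R := (Subgroup.one_lt_card_iff_ne_bot R).mpr hR1
      have h3 : 0 < Nat.card (G ⧸ R) := Nat.card_pos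
      nlinarith
    obtain ⟨Hb, hHbc, a, ha⟩ := ih (G ⧸ R) hcard (isPSolvable_of_surjective π hπ hG)
    set L := Hb.comap π with hL
    have hLi : L.index = p ^ a := by rw [hL, Subgroup.index_comap_of_surjective _ hπ, ha]
    have hRL : R ≤ L := by
      intro r hr
      rw [hL, Subgroup.mem_comap]
      have : π r = 1 := (QuotientGroup.eq_one_iff _).mpr hr
      rw [this]
      exact Hb.one_mem
    have hLc : Nat.card L = Nat.card Hb * Nat.card R := by
      have h1 := Subgroup.card_mul_index L
      have h2 := Subgroup.card_mul_index Hb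
      rw [hLi] at h1
      rw [ha] at h2
      have hpos : 0 < p ^ a := pow_pos hp.pos a
      apply Nat.eq_of_mul_eq_mul_right hpos
      rw [h1, hGR, ← h2]
      ring
    rcases hRc with ⟨m, hm⟩ | hRc
    · -- `R` is a `p`-group: Schur-Zassenhaus in `L`
      have hR'n : (R.subgroupOf L).Normal := Subgroup.normal_subgroupOf
      have hR'c : Nat.card (R.subgroupOf L) = p ^ m := by
        rw [Cfsg.Agent.Lib.Coprime.SchurZassenhaus.card_subgroupOf_of_le hRL, hm]
      have hR'i : (R.subgroupOf L).index = Nat.card Hb := by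
        have h1 := Subgroup.card_mul_index (R.subgroupOf L)
        rw [hR'c, hLc, hm, mul_comm] at h1
        exact Nat.eq_of_mul_eq_mul_right (pow_pos hp.pos m) h1
      obtain ⟨H', hH'⟩ := Subgroup.exists_right_complement'_of_coprime
        (N := R.subgroupOf L) (by
          rw [hR'c, hR'i]
          exact ((hHbc.pow_right m).symm))
      have hc1 := hH'.card_mul_card
      rw [hR'c, hLc, hm, mul_comm] at hc1
      have hc2 : Nat.card H' = Nat.card Hb :=
        Nat.eq_of_mul_eq_mul_right (pow_pos hp.pos m) hc1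
      refine ⟨H'.map L.subtype, ?_, m + a, ?_⟩
      · rw [Subgroup.card_map_of_injective L.subtype_injective, hc2]
        exact hHbc
      · have h1 := Subgroup.card_mul_index (H'.map L.subtype)
        rw [Subgroup.card_map_of_injective L.subtype_injective, hc2] at h1
        have h2 := Subgroup.card_mul_index L
        rw [hLi, hLc, hm] at h2
        have hpos : 0 < Nat.card Hb := Nat.card_pos
        apply Nat.eq_of_mul_eq_mul_left hpos
        rw [h1, ← h2, pow_add]
        ring
    · exact ⟨L, by rw [hLc]; exact Nat.Coprime.mul_left hHbc hRc, a, hLi⟩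

/-- A `p`-solvable group has a `p`-complement. -/
theorem exists_isPCompl [Fact p.Prime] [Finite G] (hG : IsPSolvable p G) :
    ∃ H : Subgroup G, IsPCompl p H :=
  exists_isPCompl_aux _ G le_rfl hG

/-- Every `p'`-subgroup of a `p`-solvable group is conjugate into any given `p`-complement. -/
theorem exists_conj_le_aux [Fact p.Prime] (n : ℕ) :
    ∀ (G : Type u) [Group G] [Finite G], Nat.card G ≤ n → IsPSolvable p G →
      ∀ H U : Subgroup G, IsPCompl p H → (Nat.card U).Coprime p →
      ∃ g : G, U.map (MulAut.conj g).toMonoidHom ≤ H := by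
  have hp : p.Prime := Fact.out
  induction n with
  | zero =>
    intro G _ _ h
    have := Nat.card_pos (α := G)
    omega
  | succ n ih =>
    intro G _ _ hn hG H U hH hU
    by_cases hs : Subsingleton G
    · refine ⟨1, ?_⟩
      rintro x -
      rw [Subsingleton.elim x 1]
      exact H.one_mem
    rw [not_subsingleton_iff_nontrivial] at hs
    obtain ⟨R, hRn, hR1, hRc⟩ := isPSolvable_exists_normal hG
    haveI := hRn
    set π := QuotientGroup.mk' R with hπdef
    have hπ : Function.Surjective π := QuotientGroup.mk'_surjective R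
    have hGR : Nat.card G = Nat.card (G ⧸ R) * Nat.card R :=
      Subgroup.card_eq_card_quotient_mul_card_subgroup R
    have hcard : Nat.card (G ⧸ R) ≤ n := by
      have h2 : 1 < Nat.card R := (Subgroup.one_lt_card_iff_ne_bot R).mpr hR1
      have h3 : 0 < Nat.card (G ⧸ R) := Nat.card_pos
      nlinarith
    have hHb : IsPCompl p (H.map π) := by
      obtain ⟨hc, m, hm⟩ := hH
      refine ⟨Nat.Coprime.coprime_dvd_left (Subgroup.card_map_dvd H π) hc, ?_⟩
      have h1 : (H.map π).index ∣ p ^ m := hm ▸ Subgroup.index_map_dvd H hπ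
      obtain ⟨k, -, hk⟩ := (Nat.dvd_prime_pow hp).mp h1
      exact ⟨k, hk⟩
    obtain ⟨gb, hgb⟩ := ih (G ⧸ R) hcard (isPSolvable_of_surjective π hπ hG) (H.map π) (U.map π)
      hHb (Nat.Coprime.coprime_dvd_left (Subgroup.card_map_dvd U π) hU)
    obtain ⟨g, rfl⟩ := hπ gb
    set U' := U.map (MulAut.conj g).toMonoidHom with hU'
    have hU'c : (Nat.card U').Coprime p :=
      Nat.Coprime.coprime_dvd_left (Subgroup.card_map_dvd U _) hU
    -- every element of `U'` lies in `H R`
    have hU'HR : U' ≤ H ⊔ R := by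
      rintro _ ⟨u, hu, rfl⟩
      have h1 : π (MulAut.conj g u) ∈ H.map π := by
        apply hgb
        refine ⟨π u, ⟨u, hu, rfl⟩, ?_⟩
        simp [MulAut.conj_apply]
      obtain ⟨h, hh, e⟩ := h1
      have h2 : h⁻¹ * (MulAut.conj g u) ∈ R := by
        rw [← QuotientGroup.eq_one_iff]
        have : π (h⁻¹ * (MulAut.conj g u)) = 1 := by
          rw [map_mul, map_inv, ← e]
          simp
        exact this
      have e2 : MulAut.conj g u = h * (h⁻¹ * (MulAut.conj g u)) := by group
      show MulAut.conj g u ∈ H ⊔ R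
      rw [e2]
      exact Subgroup.mul_mem_sup hh h2
    rcases hRc with ⟨m, hm⟩ | hRc
    · -- `R` is a `p`-group
      have hRp : IsPGroup p R := IsPGroup.of_card hm
      set W := U' ⊔ R with hW
      have hU'W : U' ≤ W := le_sup_left
      have hRW : R ≤ W := le_sup_right
      have hd1 : U' ⊓ R = ⊥ := by
        rw [inf_comm]; exact inf_eq_bot_of_isPGroup_of_coprime hRp hU'c
      have hd2 : (H ⊓ W) ⊓ R = ⊥ := by
        rw [inf_comm]
        exact inf_eq_bot_of_isPGroup_of_coprime hRp
          (Nat.Coprime.coprime_dvd_left (Subgroup.card_dvd_of_le inf_le_left) hH.1)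
      have hW1 : Nat.card W = Nat.card R * Nat.card U' :=
        Cfsg.Agent.Lib.Coprime.SchurZassenhaus.card_sup_of_disjoint R U' hd1
      have hsup : (H ⊓ W) ⊔ R = W := by
        apply le_antisymm (sup_le inf_le_right hRW)
        intro w hw
        have hw' : w ∈ H ⊔ R := sup_le hU'HR le_sup_right hw
        obtain ⟨h, hh, r, hr, rfl⟩ := Subgroup.mem_sup_of_normal_right.mp hw'
        refine Subgroup.mul_mem_sup ⟨hh, ?_⟩ hr
        have : h = (h * r) * r⁻¹ := by group
        rw [this]
        exact W.mul_mem hw (W.inv_mem (hRW hr))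
      have hW2 : Nat.card W = Nat.card R * Nat.card (H ⊓ W : Subgroup G) := by
        have := Cfsg.Agent.Lib.Coprime.SchurZassenhaus.card_sup_of_disjoint R (H ⊓ W) hd2
        rwa [hsup] at this
      have hcU : Nat.card (H ⊓ W : Subgroup G) = Nat.card U' :=
        Nat.eq_of_mul_eq_mul_left Nat.card_pos (hW2.symm.trans hW1)
      haveI hN : (R.subgroupOf W).Normal := Subgroup.normal_subgroupOf
      have hNc : Nat.card (R.subgroupOf W) = p ^ m := by
        rw [Cfsg.Agent.Lib.Coprime.SchurZassenhaus.card_subgroupOf_of_le hRW, hm]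
      have hNs : Group.IsSolvable (R.subgroupOf W) := by
        haveI := (IsPGroup.of_card hNc).isNilpotent
        infer_instance
      obtain ⟨t, ht⟩ := Cfsg.Agent.Lib.Coprime.SchurZassenhaus.conj_of_card (R.subgroupOf W)
        (U'.subgroupOf W) (H.subgroupOf W) (Or.inl hNs)
        (by
          rw [Cfsg.Agent.Lib.Coprime.SchurZassenhaus.card_subgroupOf_of_le hRW,
            Cfsg.Agent.Lib.Coprime.SchurZassenhaus.card_subgroupOf_of_le hU'W, hW1])
        (by
          rw [← Subgroup.inf_subgroupOf_right,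
            Cfsg.Agent.Lib.Coprime.SchurZassenhaus.card_subgroupOf_of_le (inf_le_right),
            Cfsg.Agent.Lib.Coprime.SchurZassenhaus.card_subgroupOf_of_le hU'W, hcU])
        (by
          rw [hNc, Cfsg.Agent.Lib.Coprime.SchurZassenhaus.card_subgroupOf_of_le hU'W]
          exact (hU'c.pow_right m).symm)
      refine ⟨(t : G) * g, ?_⟩
      rintro _ ⟨u, hu, rfl⟩
      have hu' : MulAut.conj g u ∈ U' := ⟨u, hu, rfl⟩
      have hu'W : (⟨MulAut.conj g u, hU'W hu'⟩ : W) ∈ U'.subgroupOf W := by
        rw [Subgroup.mem_subgroupOf]; exact hu'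
      have h1 := Cfsg.Agent.Lib.Coprime.SchurZassenhaus.conj_mem_conj_smul t _ _ hu'W
      rw [ht, Subgroup.mem_subgroupOf] at h1
      have e : (MulAut.conj ((t : G) * g)) u = (t : G) * (MulAut.conj g u) * (t : G)⁻¹ := by
        simp only [MulAut.conj_apply]; group
      show (MulAut.conj ((t : G) * g)) u ∈ H
      rw [e]
      simpa using h1
    · -- `R` is a `p'`-group
      have hRH : R ≤ H := le_of_isPCompl hH hRc
      refine ⟨g, hU'HR.trans (sup_le le_rfl hRH)⟩

/-- Every `p'`-subgroup of a `p`-solvable group is conjugate into any given `p`-complement. -/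
theorem exists_conj_le [Fact p.Prime] [Finite G] (hG : IsPSolvable p G) {H U : Subgroup G}
    (hH : IsPCompl p H) (hU : (Nat.card U).Coprime p) :
    ∃ g : G, U.map (MulAut.conj g).toMonoidHom ≤ H :=
  exists_conj_le_aux _ G le_rfl hG H U hH hU

/-- Two `p`-complements of a `p`-solvable group are conjugate. -/
theorem exists_conj_eq [Fact p.Prime] [Finite G] (hG : IsPSolvable p G) {H K : Subgroup G}
    (hH : IsPCompl p H) (hK : IsPCompl p K) :
    ∃ g : G, K = H.map (MulAut.conj g).toMonoidHom := by
  obtain ⟨g, hg⟩ := exists_conj_le hG hK hH.1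
  refine ⟨g, (Subgroup.eq_of_le_of_card_ge hg ?_).symm⟩
  rw [Subgroup.card_map_of_injective (MulAut.conj g).injective]
  exact (card_eq_of_isPCompl hH hK).symm.le

end Cfsg.Agent.Lib.Core.PComplement
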