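/-
Hall-Higman type numerical bounds on `p`-length and derived length.
-/
import Cfsg.Agent.Lib.Core.PLength
import Cfsg.Agent.Lib.Coprime.SchurZassenhaus

set_option autoImplicit false

open Cfsg

namespace Cfsg.Agent.Lib.Core.PLengthBounds

open Cfsg.Agent.Lib.Core.Basic Cfsg.Agent.Lib.Core.PSolvable Cfsg.Agent.Lib.Core.Series
  Cfsg.Agent.Lib.Core.PLength

universe u

section other

variable {p : ℕ}

/-- One prime removed from the bound `l_p ≤ ∏ (1 + l_q)`. -/
theorem pLengthLE_mul_aux [Fact p.Prime] {Q M : ℕ} (hQ : Q.Prime) (hQp : Q ≠ p)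
    (P : ∀ (G : Type u) [Group G] [Finite G], (Nat.card G).Coprime Q → Prop)
    (hP : ∀ (G : Type u) [Group G] [Finite G] (h : (Nat.card G).Coprime Q), P G h → PLengthLE p M G)
    (Hyp : ∀ (G : Type u) [Group G] [Finite G], Prop)
    (hHyp : ∀ (G : Type u) [Group G] [Finite G] (h : (Nat.card G).Coprime Q), Hyp G → P G h)
    (hHq : ∀ {G H : Type u} [Group G] [Group H] [Finite G] [Finite H] (f : G →* H)
      (_ : Function.Surjective f), Hyp G → Hyp H)
    (hHi : ∀ {L G : Type u} [Group L] [Group G] [Finite G] [Finite L] (f : L →* G)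
      (_ : Function.Injective f), Hyp G → Hyp L)
    (m : ℕ) : ∀ (G : Type u) [Group G] [Finite G], Hyp G → PLengthLE Q m G →
      PLengthLE p ((1 + m) * M) G := by
  have hQc : ∀ k, (Q ^ k).Coprime p := fun k =>
    Nat.Coprime.pow_left k ((Nat.coprime_primes hQ Fact.out).mpr hQp)
  haveI hfQ : Fact Q.Prime := ⟨hQ⟩
  induction m with
  | zero =>
    intro G _ _ hH hL
    have hc := pLengthLE_zero_iff.mp hL
    simpa using hP G hc (hHyp G hc hH)
  | succ m ih =>
    intro G _ _ hH hL
    rw [pLengthLE_succ_iff] at hL
    set O := pPrimePCore Q G with hOdef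
    haveI hOn : O.Normal := inferInstance
    have hq := ih (G ⧸ O) (hHq (QuotientGroup.mk' O) (QuotientGroup.mk'_surjective O) hH) hL
    -- `O` is an extension of a `Q'`-group by a `Q`-group
    set N := pPrimeCore Q G with hN
    let f : O →* pCore Q (G ⧸ N) :=
      ((QuotientGroup.mk' N).comp O.subtype).codRestrict _ (fun y => y.2)
    have hf : Function.Surjective f := by
      rintro ⟨t, ht⟩
      obtain ⟨x, rfl⟩ := QuotientGroup.mk_surjective t
      exact ⟨⟨x, ht⟩, rfl⟩
    have hkerc : (Nat.card f.ker).Coprime Q := by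
      let g : f.ker →* N := MonoidHom.codRestrict (O.subtype.comp f.ker.subtype) N (fun y => by
        have h1 := congrArg Subtype.val (MonoidHom.mem_ker.mp y.2)
        exact (QuotientGroup.eq_one_iff _).mp h1)
      have hg : Function.Injective g := by
        intro y z hyz
        apply Subtype.ext
        apply Subtype.ext
        have := congrArg (fun w : N => (w : G)) hyz
        exact this
      exact Nat.Coprime.coprime_dvd_left (card_dvd_of_injective g hg) pPrimeCore_coprime
    have hkerH : Hyp f.ker :=
      hHi (O.subtype.comp f.ker.subtype) (O.subtype_injective.comp f.ker.subtype_injective) hH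
    have hker := hP f.ker hkerc (hHyp f.ker hkerc hkerH)
    have htar : PLengthLE p 0 (pCore Q (G ⧸ N)) := by
      rw [pLengthLE_zero_iff]
      obtain ⟨k, hk⟩ := IsPGroup.iff_card.mp (pCore_isPGroup (p := Q) (G := G ⧸ N))
      rw [hk]
      exact hQc k
    have hO : PLengthLE p M O := by
      have := PLengthLE.of_ker f hf hker htar
      simpa using this
    have hO' : PLengthLE p M (QuotientGroup.mk' O).ker := by
      rw [QuotientGroup.ker_mk']
      exact hO
    have h := PLengthLE.of_ker (QuotientGroup.mk' O) (QuotientGroup.mk'_surjective O) hO' hq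
    rwa [show M + (1 + m) * M = (1 + (m + 1)) * M by ring] at h

/-- The bound `l_p ≤ ∏_{q ≠ p} (1 + l_q)`, finset form. -/
theorem pLengthLE_prod [Fact p.Prime] {ι : Type*} [DecidableEq ι] (q : ι → ℕ)
    (hq : ∀ i, (q i).Prime ∧ q i ≠ p) (l : ι → ℕ) (s : Finset ι) :
    ∀ (G : Type u) [Group G] [Finite G],
      (∀ r : ℕ, r.Prime → r ∣ Nat.card G → r ≠ p → ∃ i ∈ s, q i = r) →
      (∀ i ∈ s, PLengthLE (q i) (l i) G) → PLengthLE p (∏ i ∈ s, (1 + l i)) G := by
  induction s using Finset.induction_on with
  | empty =>
    intro G _ _ hc _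
    simp only [Finset.prod_empty]
    apply pLengthLE_one_of_isPGroup
    have hp : p.Prime := Fact.out
    have hcard : Nat.card G ≠ 0 := Nat.card_pos.ne'
    have := Nat.eq_prime_pow_of_unique_prime_dvd hcard (p := p) (fun {d} hd hdc => by
      by_contra hdp
      obtain ⟨i, hi, -⟩ := hc d hd hdc hdp
      simp at hi)
    exact IsPGroup.of_card this
  | insert a s ha ih =>
    intro G _ _ hc hl
    rw [Finset.prod_insert ha]
    have hqa := hq a
    refine pLengthLE_mul_aux (Q := q a) hqa.1 hqa.2
      (fun G _ _ _ => (∀ r : ℕ, r.Prime → r ∣ Nat.card G → r ≠ p → ∃ i ∈ s, q i = r) ∧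
        (∀ i ∈ s, PLengthLE (q i) (l i) G))
      (fun G _ _ _ h => ih G h.1 h.2)
      (fun G _ _ => (∀ r : ℕ, r.Prime → r ∣ Nat.card G → r ≠ p → ∃ i ∈ insert a s, q i = r) ∧
        (∀ i ∈ s, PLengthLE (q i) (l i) G))
      ?_ ?_ ?_ (l a) G ⟨hc, fun i hi => hl i (Finset.mem_insert_of_mem hi)⟩
      (hl a (Finset.mem_insert_self a s))
    · intro G _ _ hcop h
      refine ⟨?_, h.2⟩
      intro r hr hrG hrp
      obtain ⟨i, hi, hir⟩ := h.1 r hr hrG hrp
      rw [Finset.mem_insert] at hi
      rcases hi with rfl | hi
      · exfalso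
        subst hir
        have := Nat.dvd_gcd hrG (dvd_refl (q i))
        rw [hcop] at this
        exact hr.one_lt.ne' (Nat.dvd_one.mp this)
      · exact ⟨i, hi, hir⟩
    · intro G H _ _ _ _ f hf h
      refine ⟨?_, fun i hi => PLengthLE.of_surjective f hf (h.2 i hi)⟩
      intro r hr hrH hrp
      exact h.1 r hr (hrH.trans (card_dvd_of_surjective f hf)) hrp
    · intro L G _ _ _ _ f hf h
      refine ⟨?_, fun i hi => PLengthLE.of_injective f hf (h.2 i hi)⟩
      intro r hr hrL hrp
      exact h.1 r hr (hrL.trans (card_dvd_of_injective f hf)) hrp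

end other

section derived

/-- If the term `m` of the derived series of `G` lies in `V`, then `m + k` lies in the image of
the term `k` of the derived series of `V`. -/
theorem derivedSeries_add_le {G : Type u} [Group G] {m : ℕ} {V : Subgroup G}
    (h : derivedSeries G m ≤ V) (k : ℕ) :
    derivedSeries G (m + k) ≤ (derivedSeries V k).map V.subtype := by
  induction k with
  | zero =>
    simp only [add_zero, derivedSeries_zero]
    rwa [← MonoidHom.range_eq_map, Subgroup.range_subtype]
  | succ k ih =>
    rw [← add_assoc, derivedSeries_succ, derivedSeries_succ, Subgroup.map_commutator]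
    exact Subgroup.commutator_mono ih ih

/-- Derived series of subgroups are monotone. -/
theorem map_derivedSeries_le_of_le {G : Type u} [Group G] {V S : Subgroup G} (h : V ≤ S) (k : ℕ) :
    (derivedSeries V k).map V.subtype ≤ (derivedSeries S k).map S.subtype := by
  induction k with
  | zero =>
    simp only [derivedSeries_zero]
    rw [← MonoidHom.range_eq_map, ← MonoidHom.range_eq_map, Subgroup.range_subtype,
      Subgroup.range_subtype]
    exact h
  | succ k ih =>
    rw [derivedSeries_succ, derivedSeries_succ, Subgroup.map_commutator, Subgroup.map_commutator]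
    exact Subgroup.commutator_mono ih ih

/-- Derived length of a Sylow subgroup passes to quotients. -/
theorem derivedSeries_sylow_of_surjective {G H : Type u} [Group G] [Group H] [Finite G] {q d : ℕ}
    [Fact q.Prime] (f : G →* H) (hf : Function.Surjective f)
    (hd : ∀ S : Sylow q G, derivedSeries (S : Subgroup G) d = ⊥) (S : Sylow q H) :
    derivedSeries (S : Subgroup H) d = ⊥ := by
  obtain ⟨S₀, rfl⟩ := Sylow.mapSurjective_surjective hf q S
  let g : (S₀ : Subgroup G) →* (S₀.mapSurjective hf : Subgroup H) :=
    (f.comp (S₀ : Subgroup G).subtype).codRestrict _ (fun y => ⟨y, y.2, rfl⟩)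
  have hg : Function.Surjective g := by
    rintro ⟨_, y, hy, rfl⟩
    exact ⟨⟨y, hy⟩, rfl⟩
  rw [← map_derivedSeries_eq hg, hd S₀, Subgroup.map_bot]

/-- Hall-Higman: the derived length is at most `∑ d_i l_i`. -/
theorem derivedSeries_sum_aux {r : ℕ} (q : Fin r → ℕ) (hq : ∀ i, (q i).Prime) (d : Fin r → ℕ)
    (n : ℕ) : ∀ (G : Type u) [Group G] [Finite G] [Group.IsSolvable G], Nat.card G ≤ n →
      (∀ s : ℕ, s.Prime → s ∣ Nat.card G → ∃ i, q i = s) →
      (∀ i, haveI := Fact.mk (hq i); ∀ S : Sylow (q i) G, derivedSeries (S : Subgroup G) (d i) = ⊥) →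
      ∀ l : Fin r → ℕ, (∀ i, PLengthLE (q i) (l i) G) →
      derivedSeries G (Finset.univ.sum fun i => d i * l i) = ⊥ := by
  induction n with
  | zero =>
    intro G _ _ _ h
    have := Nat.card_pos (α := G)
    omega
  | succ n ih =>
    intro G _ _ _ hn hc hd l hl
    by_cases hs : Subsingleton G
    · exact Subsingleton.elim _ _
    rw [not_subsingleton_iff_nontrivial] at hs
    obtain ⟨s, hsp, D, hDn, hD1, hDp⟩ :=
      Cfsg.Agent.Lib.Coprime.SchurZassenhaus.exists_normal_pSubgroup G
    have hsG : s ∣ Nat.card G := by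
      haveI := Fact.mk hsp
      have h1 := hDp.exists_card_eq
      obtain ⟨m, hm⟩ := h1
      have h2 : 1 < Nat.card D := (Subgroup.one_lt_card_iff_ne_bot D).mpr hD1
      have hm0 : m ≠ 0 := by
        rintro rfl
        simp [hm] at h2
      exact (dvd_pow_self s hm0).trans (hm ▸ Subgroup.card_subgroup_dvd_card D)
    obtain ⟨i, rfl⟩ := hc s hsp hsG
    haveI hfact : Fact (q i).Prime := ⟨hq i⟩
    set p := q i with hp
    set V := pCore p G with hV
    have hDV : D ≤ V := le_pCore hDn hDp
    have hV1 : V ≠ ⊥ := fun h => hD1 (le_bot_iff.mp (h ▸ hDV))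
    -- passage to a quotient
    have hquot : ∀ (N : Subgroup G) [N.Normal], N ≠ ⊥ → ∀ l' : Fin r → ℕ,
        (∀ j, PLengthLE (q j) (l' j) (G ⧸ N)) →
        derivedSeries G (Finset.univ.sum fun j => d j * l' j) ≤ N := by
      intro N _ hN l' hl'
      have hcard : Nat.card (G ⧸ N) ≤ n := by
        have h1 : Nat.card G = Nat.card (G ⧸ N) * Nat.card N :=
          Subgroup.card_eq_card_quotient_mul_card_subgroup N
        have h2 : 1 < Nat.card N := (Subgroup.one_lt_card_iff_ne_bot N).mpr hN
        have h3 : 0 < Nat.card (G ⧸ N) := Nat.card_pos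
        nlinarith
      have h1 := ih (G ⧸ N) hcard
        (fun t ht htd => hc t ht (htd.trans (card_dvd_of_surjective (QuotientGroup.mk' N)
          (QuotientGroup.mk'_surjective N))))
        (fun j => by
          haveI := Fact.mk (hq j)
          exact derivedSeries_sylow_of_surjective (QuotientGroup.mk' N)
            (QuotientGroup.mk'_surjective N) (hd j))
        l' hl'
      have h2 := map_derivedSeries_eq (QuotientGroup.mk'_surjective N)
        (Finset.univ.sum fun j => d j * l' j)
      rw [h1, Subgroup.map_eq_bot_iff, QuotientGroup.ker_mk'] at h2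
      exact h2
    by_cases hO : pPrimeCore p G = ⊥
    · -- `O_{p'}(G) = 1`
      have hOP : pPrimePCore p G = V := by
        apply le_antisymm
        · apply le_pCore inferInstance
          intro x
          obtain ⟨k, hk⟩ := exists_pow_mem_pPrimeCore (p := p) x.2
          rw [hO, Subgroup.mem_bot] at hk
          exact ⟨k, Subtype.ext hk⟩
        · apply le_pPrimePCore inferInstance
          intro x hx
          obtain ⟨k, hk⟩ := (pCore_isPGroup (p := p) (G := G)) ⟨x, hx⟩
          refine ⟨k, ?_⟩
          have : x ^ p ^ k = 1 := congrArg Subtype.val hk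
          rw [this]
          exact Subgroup.one_mem _
      have hli : l i ≠ 0 := by
        intro h0
        have h1 := hl i
        rw [h0, pLengthLE_zero_iff] at h1
        have hp1 := (hq i).one_lt
        have : p ∣ Nat.card G := by
          obtain ⟨m, hm⟩ := hDp.exists_card_eq
          have h2 : 1 < Nat.card D := (Subgroup.one_lt_card_iff_ne_bot D).mpr hD1
          have hm0 : m ≠ 0 := by
            rintro rfl
            simp [hm] at h2
          exact (dvd_pow_self p hm0).trans (hm ▸ Subgroup.card_subgroup_dvd_card D)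
        have h3 := Nat.dvd_gcd this (dvd_refl p)
        rw [h1] at h3
        exact hp1.ne' (Nat.dvd_one.mp h3)
      obtain ⟨l₀, hl₀⟩ := Nat.exists_eq_succ_of_ne_zero hli
      have hli2 := hl i
      rw [hl₀, Nat.succ_eq_add_one, pLengthLE_succ_iff] at hli2
      have hli3 : PLengthLE p l₀ (G ⧸ V) := PLengthLE.of_quotient_le hOP.le hli2
      set l' := Function.update l i l₀ with hl'
      have h1 := hquot V hV1 l' (by
        intro j
        by_cases hj : j = i
        · subst hj
          rw [hl', Function.update_self]
          exact hli3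
        · rw [hl', Function.update_of_ne hj]
          exact PLengthLE.of_surjective (QuotientGroup.mk' V) (QuotientGroup.mk'_surjective V) (hl j))
      have hsum : (Finset.univ.sum fun j => d j * l j) =
          (Finset.univ.sum fun j => d j * l' j) + d i := by
        rw [← Finset.add_sum_erase _ (fun j => d j * l j) (Finset.mem_univ i),
          ← Finset.add_sum_erase _ (fun j => d j * l' j) (Finset.mem_univ i)]
        have e1 : (Finset.univ.erase i).sum (fun j => d j * l j) =
            (Finset.univ.erase i).sum (fun j => d j * l' j) := by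
          apply Finset.sum_congr rfl
          intro j hj
          rw [hl', Function.update_of_ne (Finset.ne_of_mem_erase hj)]
        rw [e1, hl₀, hl', Function.update_self, Nat.succ_eq_add_one]
        ring
      rw [hsum]
      obtain ⟨S⟩ : Nonempty (Sylow p G) := inferInstance
      have hVS : V ≤ S := pCore_le_sylow S
      apply le_bot_iff.mp
      refine (derivedSeries_add_le h1 (d i)).trans ((map_derivedSeries_le_of_le hVS (d i)).trans ?_)
      rw [hd i S, Subgroup.map_bot]
    · -- two commuting normal subgroups with trivial intersection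
      apply le_bot_iff.mp
      have h1 := hquot V hV1 l (fun j => PLengthLE.of_surjective (QuotientGroup.mk' V)
        (QuotientGroup.mk'_surjective V) (hl j))
      have h2 := hquot (pPrimeCore p G) hO l (fun j => PLengthLE.of_surjective (QuotientGroup.mk' _)
        (QuotientGroup.mk'_surjective _) (hl j))
      have h3 : V ⊓ pPrimeCore p G = ⊥ := pCore_inf_pPrimeCore
      rw [← h3]
      exact le_inf h1 h2

end derived

end Cfsg.Agent.Lib.Core.PLengthBounds
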